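import Mathlib
import Cfsg.Prelude.Def_Transfer
import Cfsg.Agent.J2.ExtQuot

/-! A 2-group with `[R, R], R² ≤ ⟨z⟩` and centre `⟨d, z⟩` of order 4 is `⟨d⟩ × E`, `E` extraspecial. -/

set_option autoImplicit false

namespace Cfsg.Agent.H845.SplitTwo

open Subgroup

variable {R : Type*} [Group R]

/-- the subgroup `M ∪ M x⁻¹` -/
def adj (M : Subgroup R) (hn : M.Normal) (x : R) (hx : x * x ∈ M) : Subgroup R where
  carrier := {y | y ∈ M ∨ y * x ∈ M}
  one_mem' := Or.inl M.one_mem
  mul_mem' := by
    rintro a b (ha | ha) (hb | hb)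
    · exact Or.inl (M.mul_mem ha hb)
    · right
      rw [mul_assoc]
      exact M.mul_mem ha hb
    · right
      have h := hn.conj_mem b hb x⁻¹
      rw [inv_inv] at h
      have : a * b * x = (a * x) * (x⁻¹ * b * x) := by group
      rw [this]
      exact M.mul_mem ha h
    · left
      have h := hn.conj_mem _ hb x⁻¹
      rw [inv_inv] at h
      have : a * b = (a * x) * (x⁻¹ * (b * x) * x) * (x * x)⁻¹ := by group
      rw [this]
      exact M.mul_mem (M.mul_mem ha h) (M.inv_mem hx)
  inv_mem' := by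
    rintro a (ha | ha)
    · exact Or.inl (M.inv_mem ha)
    · right
      have h := hn.conj_mem _ ha x⁻¹
      rw [inv_inv] at h
      have : a⁻¹ * x = ((x⁻¹ * (a * x) * x) * (x * x)⁻¹)⁻¹ := by group
      rw [this]
      exact M.inv_mem (M.mul_mem h (M.inv_mem hx))

theorem exists_split [Finite R] {n : ℕ} (hcard : Nat.card R = 2 ^ (n + 1)) {z d : R}
    (hdd : d * d = 1) (hd : d ≠ 1) (hdz : d ≠ z) (hz : z ≠ 1) (hzz : z * z = 1)
    (hdc : ∀ x, x * d = d * x) (hzc : ∀ x, x * z = z * x)
    (hcomm : ∀ x y : R, x * y * x⁻¹ * y⁻¹ = 1 ∨ x * y * x⁻¹ * y⁻¹ = z)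
    (hsq : ∀ x : R, x * x = 1 ∨ x * x = z)
    (hcen : ∀ x : R, (∀ y, x * y = y * x) → x = 1 ∨ x = d ∨ x = z * d ∨ x = z)
    (hnon : ∃ x y : R, x * y ≠ y * x) :
    ∃ (E : Type) (_ : Group E) (_ : Finite E), Cfsg.IsExtraspecial 2 E ∧ Nat.card E = 2 ^ n ∧
      Nonempty (R ≃* Multiplicative (ZMod 2) × E) := by
  classical
  -- a maximal subgroup containing `z` and not `d`
  have h0 : zpowers z ∈ {H : Subgroup R | z ∈ H ∧ d ∉ H} := by
    refine ⟨mem_zpowers z, fun h => ?_⟩
    obtain ⟨k, hk⟩ := mem_zpowers_iff.1 h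
    rcases Int.even_or_odd' k with ⟨m, rfl | rfl⟩
    · rw [zpow_mul, show z ^ (2 : ℤ) = 1 by rw [zpow_ofNat, pow_two, hzz], one_zpow] at hk
      exact hd hk.symm
    · rw [zpow_add, zpow_mul, show z ^ (2 : ℤ) = 1 by rw [zpow_ofNat, pow_two, hzz], one_zpow,
        one_mul, zpow_one] at hk
      exact hdz hk.symm
  obtain ⟨M, -, hM⟩ := (Set.toFinite {H : Subgroup R | z ∈ H ∧ d ∉ H}).exists_le_maximal h0
  have hzM : z ∈ M := hM.prop.1
  have hdM : d ∉ M := hM.prop.2
  have hsqM : ∀ x : R, x * x ∈ M := by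
    intro x
    rcases hsq x with h | h
    · rw [h]; exact M.one_mem
    · rw [h]; exact hzM
  have hn : M.Normal := by
    constructor
    intro m hm g
    have : g * m * g⁻¹ = (g * m * g⁻¹ * m⁻¹) * m := by group
    rw [this]
    refine M.mul_mem ?_ hm
    rcases hcomm g m with h | h
    · rw [h]; exact M.one_mem
    · rw [h]; exact hzM
  have hcov : ∀ x : R, x ∈ M ∨ d * x ∈ M := by
    intro x
    by_cases hx : x ∈ M
    · exact Or.inl hx
    right
    by_contra hcon
    have h1 : adj M hn x (hsqM x) ∈ {H : Subgroup R | z ∈ H ∧ d ∉ H} := by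
      refine ⟨Or.inl hzM, ?_⟩
      rintro (h | h)
      · exact hdM h
      · exact hcon h
    have h2 : M ≤ adj M hn x (hsqM x) := fun y hy => Or.inl hy
    have h3 := hM.le_of_ge h1 h2
    exact hx (h3 (Or.inr (hsqM x)))
  -- the isomorphism
  have hcommute : ∀ (a : ↥(zpowers d)) (m : ↥M), Commute ((zpowers d).subtype a) (M.subtype m) := by
    rintro ⟨a, ha⟩ m
    obtain ⟨k, rfl⟩ := mem_zpowers_iff.1 ha
    exact Commute.zpow_left (hdc m).symm k
  have hpow : ∀ a ∈ zpowers d, a = 1 ∨ a = d := by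
    intro a ha
    obtain ⟨k, rfl⟩ := mem_zpowers_iff.1 ha
    rcases Int.even_or_odd' k with ⟨m, rfl | rfl⟩
    · left
      rw [zpow_mul, show d ^ (2 : ℤ) = 1 by rw [zpow_ofNat, pow_two, hdd], one_zpow]
    · right
      rw [zpow_add, zpow_mul, show d ^ (2 : ℤ) = 1 by rw [zpow_ofNat, pow_two, hdd], one_zpow,
        one_mul, zpow_one]
  let f : ↥(zpowers d) × ↥M →* R := (zpowers d).subtype.noncommCoprod M.subtype hcommute
  have hf : ∀ p, f p = (p.1 : R) * (p.2 : R) := fun p => rfl
  have hfb : Function.Bijective f := by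
    constructor
    · rw [injective_iff_map_eq_one]
      rintro ⟨⟨a, ha⟩, m⟩ h
      rw [hf] at h
      rcases hpow a ha with rfl | rfl
      · rw [one_mul] at h
        have : m = 1 := Subtype.ext h
        rw [this]; rfl
      · exfalso
        apply hdM
        have : a = (m : R)⁻¹ := eq_inv_of_mul_eq_one_left h
        rw [this]
        exact M.inv_mem m.2
    · intro x
      rcases hcov x with h | h
      · exact ⟨(1, ⟨x, h⟩), by rw [hf]; exact one_mul x⟩
      · refine ⟨(⟨d, mem_zpowers d⟩, ⟨d * x, h⟩), ?_⟩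
        rw [hf]
        show d * (d * x) = x
        rw [← mul_assoc, hdd, one_mul]
  have hdcard : Nat.card ↥(zpowers d) = 2 := by
    rw [Nat.card_zpowers]
    exact orderOf_eq_prime (by rw [pow_two, hdd]) hd
  have hMcard : Nat.card ↥M = 2 ^ n := by
    have h1 := Nat.card_congr (Equiv.ofBijective f hfb)
    rw [Nat.card_prod, hdcard, hcard, pow_succ] at h1
    omega
  have hMext : Cfsg.IsExtraspecial 2 ↥M := by
    have hcen' : ∀ x : ↥M, x ∈ center ↥M → x = 1 ∨ x = ⟨z, hzM⟩ := by
      intro x hx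
      rw [mem_center_iff] at hx
      have h1 : ∀ y : R, (x : R) * y = y * x := by
        intro y
        rcases hcov y with h | h
        · exact (congrArg Subtype.val (hx ⟨y, h⟩)).symm
        · have h2 := (congrArg Subtype.val (hx ⟨d * y, h⟩)).symm
          have h3 : (x : R) * (d * y) = d * y * x := h2
          have h4 : d * ((x : R) * y) = d * (y * x) := by
            rw [← mul_assoc, ← hdc, mul_assoc, h3, mul_assoc]
          exact mul_left_cancel h4
      rcases hcen x h1 with h | h | h | h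
      · left; exact Subtype.ext h
      · exact absurd (h ▸ x.2) hdM
      · exfalso
        apply hdM
        have : d = z * (x : R) := by rw [h, ← mul_assoc, hzz, one_mul]
        rw [this]
        exact M.mul_mem hzM x.2
      · right; exact Subtype.ext h
    have hzcen : (⟨z, hzM⟩ : ↥M) ∈ center ↥M := by
      rw [mem_center_iff]
      intro g
      exact Subtype.ext (hzc g)
    refine Cfsg.Agent.J2.ExtQuot.isExtraspecial_two (IsPGroup.of_card hMcard) ?_ ?_ ?_
    · have h1 : center ↥M = zpowers (⟨z, hzM⟩ : ↥M) := by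
        apply le_antisymm
        · intro x hx
          rcases hcen' x hx with rfl | rfl
          · exact one_mem _
          · exact mem_zpowers _
        · rw [zpowers_le]
          exact hzcen
      rw [h1, Nat.card_zpowers]
      refine orderOf_eq_prime (Subtype.ext ?_) (fun h => hz (congrArg Subtype.val h))
      show (z : R) ^ 2 = 1
      rw [pow_two, hzz]
    · intro x
      rcases hsq x with h | h
      · have : x ^ 2 = 1 := Subtype.ext (by rw [pow_two]; exact h)
        rw [this]; exact one_mem _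
      · have : x ^ 2 = ⟨z, hzM⟩ := Subtype.ext (by rw [pow_two]; exact h)
        rw [this]; exact hzcen
    · by_contra hcon
      push Not at hcon
      obtain ⟨x, y, hxy⟩ := hnon
      apply hxy
      have key : ∀ a b : R, a ∈ M → b ∈ M → a * b = b * a := fun a b ha hb =>
        congrArg Subtype.val (hcon ⟨a, ha⟩ ⟨b, hb⟩)
      have e1 : ∀ u v : R, (d * u) * v = v * (d * u) → u * v = v * u := by
        intro u v h
        have : d * (u * v) = d * (v * u) := by
          rw [← mul_assoc, h, ← mul_assoc, hdc, mul_assoc]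
        exact mul_left_cancel this
      rcases hcov x with hx | hx <;> rcases hcov y with hy | hy
      · exact key x y hx hy
      · exact (e1 y x (key _ _ hy hx)).symm
      · exact e1 x y (key _ _ hx hy)
      · exact e1 x y (e1 y (d * x) (key _ _ hy hx)).symm
  refine ⟨Shrink.{0} ↥M, inferInstance, Finite.of_equiv _ (equivShrink.{0} ↥M), ?_, ?_, ?_⟩
  · exact Cfsg.Agent.J2.ExtQuot.isExtraspecial_of_equiv (Shrink.mulEquiv.{0} (α := ↥M)).symm hMext
  · rw [← hMcard]
    exact Nat.card_congr (equivShrink.{0} ↥M).symm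
  · have e1 : ↥(zpowers d) ≃* Multiplicative (ZMod 2) :=
      mulEquivOfPrimeCardEq (p := 2) hdcard (by simp)
    exact ⟨(MulEquiv.ofBijective f hfb).symm.trans
      (MulEquiv.prodCongr e1 (Shrink.mulEquiv.{0} (α := ↥M)).symm)⟩

end Cfsg.Agent.H845.SplitTwo
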