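import Mathlib
import Cfsg.Prelude.Def_Local
import Cfsg.Agent.H845.AutUFour
import Cfsg.Agent.H845.SplitTwo
import Cfsg.Agent.KFacts.FiTT.Final
import Cfsg.Agent.SignalizersComponents.FStarPCore
import Cfsg.Agent.Lib.Cores
import Cfsg.Agent.S0283
import Cfsg.Agent.S0303

/-! S5519 from a surjection `C(dd') → Aut (U4(2))` with kernel `R`. -/

set_option autoImplicit false

namespace Cfsg.Agent.H845.TwoProd

open Subgroup Cfsg

/-- `Aut L` has no nontrivial normal 2-subgroup, `L` simple of order not a power of two -/
theorem eq_bot_of_normal_two {L : Type*} [Group L] [Finite L] [IsSimpleGroup L]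
    (hnc : center L = ⊥) (hL : ¬ IsPGroup 2 L) (N : Subgroup (MulAut L)) (hN : N.Normal)
    (h2 : IsPGroup 2 ↥N) : N = ⊥ := by
  -- the elements whose inner automorphism lies in `N`
  have hn : (N.comap (MulAut.conj : L →* MulAut L)).Normal := hN.comap _
  have hbot : N.comap (MulAut.conj : L →* MulAut L) = ⊥ := by
    rcases hn.eq_bot_or_eq_top with h | h
    · exact h
    · exfalso
      apply hL
      have hinj : Function.Injective (MulAut.conj : L →* MulAut L) := by
        rw [injective_iff_map_eq_one]
        intro a ha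
        have : a ∈ center L := by
          rw [mem_center_iff]
          intro g
          have h1 := congrArg (fun α : MulAut L => α g) ha
          simp only [MulAut.conj_apply, MulAut.one_apply] at h1
          calc g * a = a * g * a⁻¹ * a := by rw [h1]
            _ = a * g := by group
        rwa [hnc, mem_bot] at this
      have hall : ∀ a : L, MulAut.conj a ∈ N := by
        intro a
        have : a ∈ N.comap (MulAut.conj : L →* MulAut L) := by rw [h]; trivial
        exact this
      let f : L →* ↥N := (MulAut.conj : L →* MulAut L).codRestrict N hall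
      exact h2.of_injective f (fun a b hab => hinj (congrArg Subtype.val hab))
  rw [eq_bot_iff]
  intro α hα
  rw [mem_bot]
  ext g
  have h1 : MulAut.conj (α g * g⁻¹) ∈ N := by
    have e1 : MulAut.conj (α g * g⁻¹) = α * (MulAut.conj g * α⁻¹ * (MulAut.conj g)⁻¹) := by
      ext x
      simp [MulAut.mul_apply, mul_assoc]
    rw [e1]
    exact N.mul_mem hα (hN.conj_mem _ (N.inv_mem hα) _)
  have h2' : α g * g⁻¹ ∈ N.comap (MulAut.conj : L →* MulAut L) := h1
  rw [hbot, mem_bot] at h2'
  simpa using mul_inv_eq_one.1 h2'

section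

variable {K : Type*} [Group K] [Finite K] {d d' : K} {R : Subgroup K}

theorem fstar_eq (H : Cfsg.Agent.KFacts.FiTT.Facts K d d' R)
    {F : Type} [Field F] [Fintype F] (hF : Fintype.card F = 4)
    (φ : ↥(centralizer ({d * d'} : Set K)) →* MulAut (PSU 4 F 2)) (hφ : Function.Surjective φ)
    (hker : ∀ x, φ x = 1 ↔ (x : K) ∈ R) :
    generalizedFittingSubgroup ↥(centralizer ({d * d'} : Set K)) = φ.ker := by
  have h2 : Fact (Nat.Prime 2) := ⟨Nat.prime_two⟩
  have hRle : R ≤ centralizer ({d * d'} : Set K) := by
    intro x hx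
    rw [mem_centralizer_singleton_iff]
    have h1 := H.R_le hx
    rw [mem_centralizer_iff] at h1
    have a1 := h1 d (by simp)
    have a2 := h1 d' (by simp)
    rw [← mul_assoc, ← a1, mul_assoc, ← a2, mul_assoc]
  have hker2 : IsPGroup 2 ↥φ.ker := by
    let f : ↥φ.ker →* ↥R := ((centralizer ({d * d'} : Set K)).subtype.comp φ.ker.subtype).codRestrict R
      (fun x => (hker _).1 x.2)
    refine H.R_two.of_injective f (fun a b hab => ?_)
    have h3 : ((a : ↥(centralizer ({d * d'} : Set K))) : K) = ((b : ↥(centralizer ({d * d'} : Set K))) : K) :=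
      congrArg (fun r : ↥R => (r : K)) hab
    exact Subtype.ext (Subtype.ext h3)
  have hcen : centralizer (φ.ker : Set ↥(centralizer ({d * d'} : Set K))) ≤ φ.ker := by
    intro x hx
    rw [MonoidHom.mem_ker, hker]
    rw [mem_centralizer_iff] at hx
    have h1 := H.R_center (x : K) (fun y hy => by
      have h2 := hx ⟨y, hRle hy⟩ (by
        show φ _ = 1
        rw [hker]; exact hy)
      exact (congrArg Subtype.val h2).symm)
    rcases h1 with h | h | h | h
    · rw [h]; exact one_mem _
    · rw [h]; exact H.d_mem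
    · rw [h]; exact H.d'_mem
    · rw [h]; exact mul_mem H.d_mem H.d'_mem
  rw [Cfsg.Agent.SignalizersComponents.FStarPCore.generalizedFitting_eq_pCore_of_centralizer_le
    (MonoidHom.normal_ker φ) hker2 hcen]
  apply le_antisymm
  · -- the image of `O_2` is trivial
    obtain ⟨e⟩ := Cfsg.Agent.S0303.result (F := ZMod 2) (K := F) (q := 2) (ZMod.card 2) hF 1 1
      Cfsg.Agent.LargeExtra.Cards.aniso
    have hsim : IsSimpleGroup (PSU 4 F 2) :=
      Cfsg.Agent.S0283.result (q := 2) hF 4 (by norm_num) (by norm_num)
    obtain ⟨e'⟩ := Cfsg.Agent.H845.AutUFour.nonempty_equiv_omega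
    have hcardL : Nat.card (PSU 4 F 2) = 25920 := by
      rw [← Nat.card_congr (e'.trans e).toEquiv]
      exact Cfsg.Agent.H845.AutUFour.card_omega
    have hfin : Finite (PSU 4 F 2) := Nat.finite_of_card_ne_zero (by rw [hcardL]; norm_num)
    have hL : ¬ IsPGroup 2 (PSU 4 F 2) := by
      intro h
      obtain ⟨k, hk⟩ := IsPGroup.iff_card.1 h
      rw [hcardL] at hk
      have : (5 : ℕ) ∣ 2 ^ k := by rw [← hk]; norm_num
      have := (Nat.Prime.dvd_of_dvd_pow (by norm_num) this)
      omega
    have hnc : center (PSU 4 F 2) = ⊥ := by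
      rw [eq_bot_iff]
      intro x hx
      rw [mem_center_iff] at hx
      have h1 : (e'.trans e).symm x ∈ center (Omega (ZMod 2) Cfsg.Agent.H845.AutUFour.Q6) := by
        rw [mem_center_iff]
        intro g
        apply (e'.trans e).injective
        rw [map_mul, map_mul, MulEquiv.apply_symm_apply]
        exact hx _
      have h3 : (e'.trans e).symm x ∈ (⊥ : Subgroup (Omega (ZMod 2) Cfsg.Agent.H845.AutUFour.Q6)) :=
        Cfsg.Agent.H845.AutUFour.center_omega ▸ h1
      rw [mem_bot] at h3
      rw [mem_bot]
      exact (MulEquiv.map_eq_one_iff _).1 h3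
    have hN : ((pCore 2 ↥(centralizer ({d * d'} : Set K))).map φ).Normal :=
      Subgroup.Normal.map (Cfsg.Agent.Lib.Cores.pCore_normal 2) φ hφ
    have hb := eq_bot_of_normal_two hnc hL _ hN (IsPGroup.map (Cfsg.Agent.Lib.Cores.pCore_isPGroup 2) φ)
    rwa [Subgroup.map_eq_bot_iff] at hb
  · exact Cfsg.Agent.Lib.Cores.le_pCore (MonoidHom.normal_ker φ) hker2

/-- the conclusion of S5519 -/
theorem main (H : Cfsg.Agent.KFacts.FiTT.Facts K d d' R)
    {F : Type} [Field F] [Fintype F] (hF : Fintype.card F = 4)
    (φ : ↥(centralizer ({d * d'} : Set K)) →* MulAut (PSU 4 F 2)) (hφ : Function.Surjective φ)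
    (hker : ∀ x, φ x = 1 ↔ (x : K) ∈ R) (C : Subgroup K)
    (hC : C = Subgroup.centralizer ({d * d'} : Set K)) [hn : (Cfsg.generalizedFittingSubgroup ↥C).Normal] :
    (∃ (E : Type) (_ : Group E) (_ : Finite E), Cfsg.IsExtraspecial 2 E ∧ Nat.card E = 2 ^ 9 ∧
      Nonempty (↥(Cfsg.generalizedFittingSubgroup ↥C) ≃* Multiplicative (ZMod 2) × E)) ∧
      Nonempty (↥C ⧸ Cfsg.generalizedFittingSubgroup ↥C ≃*
        Cfsg.isometryGroup (ZMod 2) (Cfsg.quadFormMinus 2 (ZMod 2) 1 1)) := by
  subst hC
  have hfs := fstar_eq H hF φ hφ hker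
  have hRle : R ≤ centralizer ({d * d'} : Set K) := by
    intro x hx
    rw [mem_centralizer_singleton_iff]
    have h1 := H.R_le hx
    rw [mem_centralizer_iff] at h1
    have a1 := h1 d (by simp)
    have a2 := h1 d' (by simp)
    rw [← mul_assoc, ← a1, mul_assoc, ← a2, mul_assoc]
  constructor
  · -- `R` splits
    have hdd := H.dd
    have hdd' := H.dd'
    have hcom := H.comm
    obtain ⟨E, i1, i2, h1, h2, ⟨g⟩⟩ := Cfsg.Agent.H845.SplitTwo.exists_split (R := ↥R) (n := 9) H.R_card
      (z := ⟨d * d', mul_mem H.d_mem H.d'_mem⟩) (d := ⟨d, H.d_mem⟩)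
      (Subtype.ext hdd) (fun h => H.d_ne (congrArg Subtype.val h))
      (fun h => H.d'_ne (by
        have : d = d * d' := congrArg Subtype.val h
        exact (mul_eq_left.1 this.symm)))
      (fun h => H.ne (by
        have : d * d' = 1 := congrArg Subtype.val h
        calc d = d * (d' * d') := by rw [hdd', mul_one]
          _ = d * d' * d' := by rw [mul_assoc]
          _ = d' := by rw [this, one_mul]))
      (Subtype.ext (by
        show d * d' * (d * d') = 1
        calc d * d' * (d * d') = d * (d' * d) * d' := by group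
          _ = d * (d * d') * d' := by rw [hcom]
          _ = (d * d) * (d' * d') := by group
          _ = 1 := by rw [hdd, hdd', mul_one]))
      (fun x => Subtype.ext (by
        have h1 := H.R_le x.2
        rw [mem_centralizer_iff] at h1
        exact (h1 d (by simp)).symm))
      (fun x => Subtype.ext (by
        have h1 := hRle x.2
        rw [mem_centralizer_singleton_iff] at h1
        exact h1))
      (fun x y => by
        rcases H.R_comm x x.2 y y.2 with h | h
        · left; exact Subtype.ext h
        · right; exact Subtype.ext h)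
      (fun x => by
        rcases H.R_sq x x.2 with h | h
        · left; exact Subtype.ext h
        · right; exact Subtype.ext h)
      (fun x hx => by
        rcases H.R_center (x : K) (fun y hy => congrArg Subtype.val (hx ⟨y, hy⟩)) with h | h | h | h
        · left; exact Subtype.ext h
        · right; left; exact Subtype.ext h
        · right; right; left
          apply Subtype.ext
          show (x : K) = d * d' * d
          rw [h, hcom, mul_assoc, hdd, mul_one]
        · right; right; right; exact Subtype.ext h)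
      (by
        obtain ⟨x, hx, y, hy, h⟩ := H.R_nonab
        refine ⟨⟨x, hx⟩, ⟨y, hy⟩, fun hxy => ?_⟩
        have h1 : x * y = y * x := congrArg Subtype.val hxy
        have h2 : x * y * x⁻¹ * y⁻¹ = 1 := by rw [h1]; group
        rw [h2] at h
        apply H.ne
        calc d = d * (d' * d') := by rw [hdd', mul_one]
          _ = d * d' * d' := by rw [mul_assoc]
          _ = d' := by rw [← h, one_mul])
    refine ⟨E, i1, i2, h1, h2, ⟨MulEquiv.trans ?_ g⟩⟩
    refine MulEquiv.trans (MulEquiv.subgroupCongr hfs) ?_
    have hk : φ.ker = R.subgroupOf (centralizer ({d * d'} : Set K)) := by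
      ext x
      rw [MonoidHom.mem_ker, hker, mem_subgroupOf]
    exact (MulEquiv.subgroupCongr hk).trans (Subgroup.subgroupOfEquivOfLe hRle)
  · obtain ⟨e⟩ := Cfsg.Agent.H845.AutUFour.nonempty_equiv hF
    exact ⟨((QuotientGroup.quotientMulEquivOfEq hfs).trans
      (QuotientGroup.quotientKerEquivOfSurjective φ hφ)).trans e⟩

end

end Cfsg.Agent.H845.TwoProd
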